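/-
Helper library (helper65): generic group-theoretic lemmas for BG Theorem 14.7
(counting the conjugates of a TI-set, the set `Z \ (K ∪ L)`).
-/
import Mathlib

set_option autoImplicit false

namespace Cfsg.Agent.Lib.Helper65.BG147

open Subgroup

variable {G : Type*} [Group G]

/-- Counting the union of the conjugates of a set `T` which is invariant under the subgroup `Z` and
such that only the elements of `Z` conjugate an element of `T` into `T`. -/
theorem card_mul_ncard_conj [Finite G] (Z : Subgroup G) (T : Set G)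
    (hinv : ∀ h ∈ Z, ∀ t ∈ T, h * t * h⁻¹ ∈ T)
    (hti : ∀ t ∈ T, ∀ g : G, g * t * g⁻¹ ∈ T → g ∈ Z) :
    Nat.card Z * Set.ncard {a : G | ∃ g : G, ∃ z ∈ T, a = g * z * g⁻¹} =
      Set.ncard T * Nat.card G := by
  classical
  set A : Set G := {a : G | ∃ g : G, ∃ z ∈ T, a = g * z * g⁻¹} with hA
  have hch : ∀ a : A, ∃ p : G × G, p.2 ∈ T ∧ (a : G) = p.1 * p.2 * p.1⁻¹ := by
    rintro ⟨a, g, z, hz, rfl⟩
    exact ⟨(g, z), hz, rfl⟩
  choose r hrT hr using hch
  let φ : A × Z → G × T := fun x =>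
    ((r x.1).1 * (x.2 : G), ⟨(x.2 : G)⁻¹ * (r x.1).2 * (x.2 : G), by
      have := hinv (x.2 : G)⁻¹ (Z.inv_mem x.2.2) _ (hrT x.1)
      simpa using this⟩)
  have hφ : Function.Bijective φ := by
    constructor
    · rintro ⟨a, h⟩ ⟨a', h'⟩ he
      have h1 : (r a).1 * (h : G) = (r a').1 * (h' : G) := congrArg Prod.fst he
      have h2 : (h : G)⁻¹ * (r a).2 * (h : G) = (h' : G)⁻¹ * (r a').2 * (h' : G) :=
        congrArg (fun x : G × T => (x.2 : G)) he
      have h3 : (a : G) = a' := by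
        rw [hr a, hr a']
        calc (r a).1 * (r a).2 * (r a).1⁻¹
            = ((r a).1 * (h : G)) * ((h : G)⁻¹ * (r a).2 * (h : G)) * ((r a).1 * (h : G))⁻¹ := by
              group
          _ = ((r a').1 * (h' : G)) * ((h' : G)⁻¹ * (r a').2 * (h' : G)) * ((r a').1 * (h' : G))⁻¹ := by
              rw [h1, h2]
          _ = (r a').1 * (r a').2 * (r a').1⁻¹ := by group
      have h4 : a = a' := Subtype.ext h3
      subst h4
      have h5 : (h : G) = h' := mul_left_cancel h1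
      rw [Subtype.ext h5]
    · rintro ⟨g, t, ht⟩
      have ha : g * t * g⁻¹ ∈ A := ⟨g, t, ht, rfl⟩
      set a : A := ⟨g * t * g⁻¹, ha⟩ with hadef
      have h1 : g * t * g⁻¹ = (r a).1 * (r a).2 * (r a).1⁻¹ := hr a
      have h2 : ((r a).1⁻¹ * g) * t * ((r a).1⁻¹ * g)⁻¹ = (r a).2 := by
        calc ((r a).1⁻¹ * g) * t * ((r a).1⁻¹ * g)⁻¹ = (r a).1⁻¹ * (g * t * g⁻¹) * (r a).1 := by group
          _ = (r a).2 := by rw [h1]; group
      have h3 : (r a).1⁻¹ * g ∈ Z := hti t ht _ (by rw [h2]; exact hrT a)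
      refine ⟨(a, ⟨(r a).1⁻¹ * g, h3⟩), ?_⟩
      apply Prod.ext
      · show (r a).1 * ((r a).1⁻¹ * g) = g
        group
      · apply Subtype.ext
        show ((r a).1⁻¹ * g)⁻¹ * (r a).2 * ((r a).1⁻¹ * g) = t
        rw [← h2]; group
  have hc := Nat.card_congr (Equiv.ofBijective φ hφ)
  rw [Nat.card_prod, Nat.card_prod, Nat.card_coe_set_eq, Nat.card_coe_set_eq] at hc
  rw [mul_comm, hc, mul_comm]

theorem pow_ne_one_of_coprime {b : G} {n : ℕ} (hb : b ≠ 1) (hc : (orderOf b).Coprime n) :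
    b ^ n ≠ 1 := by
  intro h
  have h1 : orderOf b ∣ n := orderOf_dvd_of_pow_eq_one h
  have h2 : orderOf b = 1 := Nat.eq_one_of_dvd_coprimes hc (dvd_refl _) h1
  exact hb (orderOf_eq_one_iff.mp h2)

end Cfsg.Agent.Lib.Helper65.BG147
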