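import Mathlib
import Cfsg.Agent.S0199

/-!
# Gagola's lemma (group-theoretic key step of S4839), helper65

`V` a normal elementary abelian `p`-subgroup of `G` with `O_p(G) = V`, centralizers of non-identity
elements of `V` are `p`-groups, `(G, V)` is a Camina pair. Then `p ∤ |G : V|`.
-/

set_option autoImplicit false

namespace Cfsg.Agent.Lib.Helper65.Gagola

variable {G : Type*} [Group G] [Finite G] {p : ℕ} [hp : Fact p.Prime]

/-- The hypotheses. -/
structure Cam (p : ℕ) (V : Subgroup G) : Prop where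
  exp : ∀ v ∈ V, v ^ p = 1
  comm : ∀ a ∈ V, ∀ b ∈ V, a * b = b * a
  cent : ∀ g : G, (∀ v ∈ V, g * v = v * g) → g ∈ V
  fpf : ∀ v ∈ V, v ≠ 1 → ∀ g : G, g * v = v * g → ∃ k : ℕ, g ^ (p ^ k) = 1
  cam : ∀ x : G, x ∉ V → ∀ v ∈ V, ∃ g : G, g * x * g⁻¹ = x * v

theorem isPGroup_of_exp {V : Subgroup G} (h : ∀ v ∈ V, v ^ p = 1) : IsPGroup p V := by
  intro v
  refine ⟨1, ?_⟩
  apply Subtype.ext
  simpa using h v v.2

/-- A `p`-element has a nontrivial fixed point on a nontrivial normal `p`-subgroup. -/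
theorem exists_fixed (V : Subgroup G) [V.Normal] (hV : IsPGroup p V) (hV1 : V ≠ ⊥) (x : G) {k : ℕ}
    (hx : x ^ (p ^ k) = 1) : ∃ v ∈ V, v ≠ 1 ∧ x * v = v * x := by
  let Z : Subgroup (ConjAct G) := Subgroup.zpowers (ConjAct.toConjAct x)
  have hZ : IsPGroup p Z := by
    have h1 : orderOf (ConjAct.toConjAct x) ∣ p ^ k := by
      apply orderOf_dvd_of_pow_eq_one
      rw [← map_pow, hx, map_one]
    obtain ⟨j, -, hj⟩ := (Nat.dvd_prime_pow hp.out).1 h1
    exact IsPGroup.of_card (n := j) (by rw [Nat.card_zpowers, hj])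
  have hcard : p ∣ Nat.card V := by
    obtain ⟨n, hn⟩ := (IsPGroup.iff_card).1 hV
    rw [hn]
    rcases n with _ | n
    · exfalso
      apply hV1
      rw [pow_zero] at hn
      exact (Subgroup.card_eq_one).1 hn
    · exact dvd_pow_self p (Nat.succ_ne_zero n)
  have h1 : (1 : V) ∈ MulAction.fixedPoints Z V := fun g => smul_one g
  obtain ⟨b, hb, hne⟩ := hZ.exists_fixed_point_of_prime_dvd_card_of_fixed_point V hcard h1
  refine ⟨b, b.2, fun h => hne (Subtype.ext h.symm), ?_⟩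
  have h2 := hb ⟨ConjAct.toConjAct x, Subgroup.mem_zpowers _⟩
  have h3 : x * (b : G) * x⁻¹ = b := by
    have h4 : ((ConjAct.toConjAct x • b : V) : G) = b := congrArg Subtype.val h2
    rw [ConjAct.Subgroup.val_conj_smul, ConjAct.smul_def, ConjAct.ofConjAct_toConjAct] at h4
    exact h4
  calc x * b = x * b * x⁻¹ * x := by group
    _ = b * x := by rw [h3]

/-- The case `p` odd: a central involution modulo `V` splits the extension. -/
theorem odd_case {V : Subgroup G} [hVn : V.Normal] (h : Cam p V) (hV1 : V ≠ ⊥) (hp2 : p ≠ 2)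
    (heven : 2 ∣ Nat.card G) : ¬ p ∣ V.index := by
  intro hdiv
  obtain ⟨t, ht⟩ := exists_prime_orderOf_dvd_card' 2 heven
  have ht2 : t * t = 1 := by
    have := pow_orderOf_eq_one t
    rwa [ht, pow_two] at this
  have htinv : t⁻¹ = t := inv_eq_of_mul_eq_one_left ht2
  have hfix : ∀ v ∈ V, t * v = v * t → v = 1 := by
    intro v hv hc
    by_contra hne
    obtain ⟨k, hk⟩ := h.fpf v hv hne t hc
    have h1 : orderOf t ∣ p ^ k := orderOf_dvd_of_pow_eq_one hk
    rw [ht] at h1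
    have h2 := Nat.Prime.dvd_of_dvd_pow Nat.prime_two h1
    exact hp2 ((Nat.prime_dvd_prime_iff_eq Nat.prime_two hp.out).1 h2).symm
  have hinv : ∀ v ∈ V, t * v * t⁻¹ = v⁻¹ := by
    intro v hv
    have hv' : t * v * t⁻¹ ∈ V := hVn.conj_mem v hv t
    have hw : v * (t * v * t⁻¹) = 1 := by
      apply hfix _ (V.mul_mem hv hv')
      rw [h.comm v hv _ hv']
      calc t * (t * v * t⁻¹ * v) = (t * t) * v * t⁻¹ * v := by group
        _ = v * t⁻¹ * v := by rw [ht2, one_mul]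
        _ = v * t * v := by rw [htinv]
        _ = (t * t) * v * t * v := by rw [ht2, one_mul]
        _ = t * (t * v * t) * v := by group
        _ = t * (t * v * t⁻¹) * v := by rw [htinv]
        _ = t * ((t * v * t⁻¹) * v) := by group
        _ = t * (v * (t * v * t⁻¹)) := by rw [h.comm v hv _ hv']
        _ = t * v * t * v * t⁻¹ := by group
        _ = t * v * t⁻¹ * v * t := by rw [htinv]
    exact (eq_inv_of_mul_eq_one_right hw)
  have hinv' : ∀ v ∈ V, t * v = v⁻¹ * t := by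
    intro v hv
    calc t * v = t * v * t⁻¹ * t := by group
      _ = v⁻¹ * t := by rw [hinv v hv]
  -- commutators with `t` lie in `V`
  have hcomm : ∀ g : G, g * t * g⁻¹ * t⁻¹ ∈ V := by
    intro g
    apply h.cent
    intro v hv
    have h1 : g⁻¹ * v⁻¹ * g ∈ V := by
      have := hVn.conj_mem v⁻¹ (V.inv_mem hv) g⁻¹
      simpa using this
    have h2 : t * (g⁻¹ * v⁻¹ * g) = (g⁻¹ * v⁻¹ * g)⁻¹ * t := hinv' _ h1
    have h3 : t⁻¹ * v = v⁻¹ * t⁻¹ := by rw [htinv]; exact hinv' v hv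
    calc g * t * g⁻¹ * t⁻¹ * v = g * t * g⁻¹ * (t⁻¹ * v) := by group
      _ = g * t * g⁻¹ * (v⁻¹ * t⁻¹) := by rw [h3]
      _ = g * (t * (g⁻¹ * v⁻¹ * g)) * g⁻¹ * t⁻¹ := by group
      _ = g * ((g⁻¹ * v⁻¹ * g)⁻¹ * t) * g⁻¹ * t⁻¹ := by rw [h2]
      _ = v * (g * t * g⁻¹ * t⁻¹) := by group
  -- an element of order `p` modulo `V`
  rw [Subgroup.index_eq_card] at hdiv
  obtain ⟨gb, hgb⟩ := exists_prime_orderOf_dvd_card' p hdiv
  obtain ⟨g, rfl⟩ := QuotientGroup.mk_surjective gb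
  have hpodd : Odd p := hp.out.odd_of_ne_two hp2
  obtain ⟨m, hm⟩ := hpodd
  set c := g * t * g⁻¹ * t⁻¹ with hc
  have hcV : c ∈ V := hcomm g
  set u := c ^ m with hu
  have huV : u ∈ V := V.pow_mem hcV m
  have huc : u * c * u = 1 := by
    have : u * c * u = c ^ p := by
      rw [hu, hm]; group
    rw [this, h.exp c hcV]
  set x := u * g with hx
  have hxt : x * t = t * x := by
    have h1 : g * t * g⁻¹ = c * t := by rw [hc]; group
    have h2 : t * u⁻¹ = u * t := by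
      have := hinv' u⁻¹ (V.inv_mem huV)
      rwa [inv_inv] at this
    have h3 : x * t * x⁻¹ = t := by
      calc x * t * x⁻¹ = u * (g * t * g⁻¹) * u⁻¹ := by rw [hx]; group
        _ = u * (c * t) * u⁻¹ := by rw [h1]
        _ = u * c * (t * u⁻¹) := by group
        _ = u * c * (u * t) := by rw [h2]
        _ = (u * c * u) * t := by group
        _ = t := by rw [huc, one_mul]
    calc x * t = x * t * x⁻¹ * x := by group
      _ = t * x := by rw [h3]
  have hmk : (QuotientGroup.mk x : G ⧸ V) = QuotientGroup.mk g := by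
    rw [hx, QuotientGroup.mk_mul, (QuotientGroup.eq_one_iff u).2 huV, one_mul]
  have hxV : x ∉ V := by
    intro hxV
    have : (QuotientGroup.mk g : G ⧸ V) = 1 := by
      rw [← hmk]; exact (QuotientGroup.eq_one_iff x).2 hxV
    rw [this, orderOf_one] at hgb
    exact hp.out.one_lt.ne hgb
  have hxp : x ^ p = 1 := by
    have h1 : x ^ p ∈ V := by
      rw [← QuotientGroup.eq_one_iff, QuotientGroup.mk_pow, hmk, ← hgb, pow_orderOf_eq_one]
    apply hfix _ h1
    exact ((Commute.pow_left (show Commute x t from hxt) p).eq).symm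
  -- the map `c ↦ x⁻¹ c x c⁻¹` is onto `V`
  have hsurj : ∀ w ∈ V, ∃ c' ∈ V, x⁻¹ * c' * x * c'⁻¹ = w := by
    intro w hw
    set v := w ^ (m + 1) with hv
    have hvV : v ∈ V := V.pow_mem hw _
    have hvv : v * v = w := by
      have : v * v = w ^ p * w := by
        rw [hv, hm]; group
      rw [this, h.exp w hw, one_mul]
    obtain ⟨g', hg'⟩ := h.cam x hxV v hvV
    set c' := g' * t * g'⁻¹ * t⁻¹ with hc'
    have hc'V : c' ∈ V := hcomm g'
    refine ⟨c', hc'V, ?_⟩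
    have h1 : g' * t * g'⁻¹ = c' * t := by rw [hc']; group
    have h2 : (c' * t) * (x * v) = (x * v) * (c' * t) := by
      rw [← h1, ← hg']
      calc g' * t * g'⁻¹ * (g' * x * g'⁻¹) = g' * (t * x) * g'⁻¹ := by group
        _ = g' * (x * t) * g'⁻¹ := by rw [hxt]
        _ = g' * x * g'⁻¹ * (g' * t * g'⁻¹) := by group
    have h3 : c' * x * v⁻¹ = x * v * c' := by
      have h4 : (c' * t) * (x * v) = c' * x * v⁻¹ * t := by
        calc (c' * t) * (x * v) = c' * (t * x) * v := by group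
          _ = c' * (x * t) * v := by rw [hxt]
          _ = c' * x * (t * v) := by group
          _ = c' * x * (v⁻¹ * t) := by rw [hinv' v hvV]
          _ = c' * x * v⁻¹ * t := by group
      have h5 : c' * x * v⁻¹ * t = x * v * c' * t := by
        rw [← h4, h2]; group
      exact mul_right_cancel h5
    calc x⁻¹ * c' * x * c'⁻¹ = x⁻¹ * (c' * x * v⁻¹) * v * c'⁻¹ := by group
      _ = x⁻¹ * (x * v * c') * v * c'⁻¹ := by rw [h3]
      _ = v * (c' * v) * c'⁻¹ := by group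
      _ = v * (v * c') * c'⁻¹ := by rw [h.comm c' hc'V v hvV]
      _ = v * v := by group
      _ = w := hvv
  have hmem : ∀ c' : V, x⁻¹ * (c' : G) * x * (c' : G)⁻¹ ∈ V := by
    intro c'
    have := hVn.conj_mem c' c'.2 x⁻¹
    rw [inv_inv] at this
    exact V.mul_mem this (V.inv_mem c'.2)
  let F : V → V := fun c' => ⟨x⁻¹ * (c' : G) * x * (c' : G)⁻¹, hmem c'⟩
  have hFs : Function.Surjective F := by
    intro w
    obtain ⟨c', hc'V, hc'⟩ := hsurj w w.2
    exact ⟨⟨c', hc'V⟩, Subtype.ext hc'⟩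
  have hFi : Function.Injective F := Finite.injective_iff_surjective.2 hFs
  obtain ⟨v0, hv0, hv01, hv0x⟩ := exists_fixed V (isPGroup_of_exp h.exp) hV1 x (k := 1)
    (by rw [pow_one]; exact hxp)
  apply hv01
  have h6 : F ⟨v0, hv0⟩ = F 1 := by
    apply Subtype.ext
    show x⁻¹ * v0 * x * v0⁻¹ = x⁻¹ * ((1 : V) : G) * x * ((1 : V) : G)⁻¹
    calc x⁻¹ * v0 * x * v0⁻¹ = x⁻¹ * (v0 * x) * v0⁻¹ := by group
      _ = x⁻¹ * (x * v0) * v0⁻¹ := by rw [hv0x]
      _ = x⁻¹ * ((1 : V) : G) * x * ((1 : V) : G)⁻¹ := by simp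
  exact congrArg Subtype.val (hFi h6)

/-- Baer–Suzuki for an involution: an involution outside of every normal `2`-subgroup inverts a
non-identity element of odd order. -/
theorem exists_inverted {H : Type*} [Group H] [Finite H] (x : H) (hx : x * x = 1)
    (hO : ∀ N : Subgroup H, N.Normal → IsPGroup 2 N → x ∉ N) :
    ∃ (b : H) (m : ℕ), Odd m ∧ b ≠ 1 ∧ b ^ m = 1 ∧ x * b * x⁻¹ = b⁻¹ := by
  haveI : Fact (Nat.Prime 2) := ⟨Nat.prime_two⟩
  have hxinv : x⁻¹ = x := inv_eq_of_mul_eq_one_left hx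
  have hX : IsPGroup 2 (Subgroup.zpowers x) := by
    have h1 : orderOf x ∣ 2 ^ 1 := by
      apply orderOf_dvd_of_pow_eq_one
      rw [pow_one, pow_two, hx]
    obtain ⟨j, -, hj⟩ := (Nat.dvd_prime_pow Nat.prime_two).1 h1
    exact IsPGroup.of_card (n := j) (by rw [Nat.card_zpowers, hj])
  by_cases hall : ∀ g : H, IsPGroup 2
      ↥(Subgroup.zpowers x ⊔ (Subgroup.zpowers x).map (MulAut.conj g).toMonoidHom)
  · obtain ⟨N, hN, hN2, hXN⟩ := Cfsg.Agent.S0199.result (Subgroup.zpowers x) hX hall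
    exact absurd (hXN (Subgroup.mem_zpowers x)) (hO N hN hN2)
  · push Not at hall
    obtain ⟨g, hg⟩ := hall
    set y := g * x * g⁻¹ with hy
    have hyy : y * y = 1 := by
      calc y * y = g * (x * x) * g⁻¹ := by rw [hy]; group
        _ = 1 := by rw [hx]; group
    have hyinv : y⁻¹ = y := inv_eq_of_mul_eq_one_left hyy
    set w := x * y with hw
    have hwinv : x * w * x⁻¹ = w⁻¹ := by
      rw [hw, mul_inv_rev, hyinv, hxinv]
      calc x * (x * y) * x = (x * x) * y * x := by group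
        _ = y * x := by rw [hx, one_mul]
    have hpow : ∀ n : ℕ, x * w ^ n * x⁻¹ = (w ^ n)⁻¹ := by
      intro n
      rw [← conj_pow, hwinv, inv_pow]
    have hno : ∀ k : ℕ, w ^ (2 ^ k) ≠ 1 := by
      intro k hk
      apply hg
      have hW : IsPGroup 2 (Subgroup.zpowers w) := by
        have h1 : orderOf w ∣ 2 ^ k := orderOf_dvd_of_pow_eq_one hk
        obtain ⟨j, -, hj⟩ := (Nat.dvd_prime_pow Nat.prime_two).1 h1
        exact IsPGroup.of_card (n := j) (by rw [Nat.card_zpowers, hj])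
      have hnorm : Subgroup.zpowers x ≤ Subgroup.normalizer (Subgroup.zpowers w : Set H) := by
        rw [Subgroup.zpowers_le]
        rw [Subgroup.mem_normalizer_iff]
        intro z
        constructor
        · intro hz
          obtain ⟨n, rfl⟩ := Subgroup.mem_zpowers_iff.1 hz
          rw [← conj_zpow, hwinv]
          exact Subgroup.zpow_mem _ (Subgroup.inv_mem _ (Subgroup.mem_zpowers w)) n
        · intro hz
          obtain ⟨n, hn⟩ := Subgroup.mem_zpowers_iff.1 hz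
          have : z = x * (w ^ n) * x⁻¹ := by
            rw [hn, hxinv]
            calc z = (x * x) * z * (x * x) := by rw [hx]; group
              _ = x * (x * z * x) * x := by group
          rw [this, ← conj_zpow, hwinv]
          exact Subgroup.zpow_mem _ (Subgroup.inv_mem _ (Subgroup.mem_zpowers w)) n
      have hsup : IsPGroup 2 ↥(Subgroup.zpowers x ⊔ Subgroup.zpowers w) :=
        IsPGroup.to_sup_of_normal_right' hX hW hnorm
      refine hsup.to_le ?_
      refine sup_le le_sup_left ?_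
      rw [MonoidHom.map_zpowers, Subgroup.zpowers_le]
      have : (MulAut.conj g).toMonoidHom x = x * w := by
        show g * x * g⁻¹ = x * w
        rw [hw, ← mul_assoc, hx, one_mul]
      rw [this]
      exact Subgroup.mul_mem _ (le_sup_left (a := Subgroup.zpowers x) (Subgroup.mem_zpowers x))
        (le_sup_right (a := Subgroup.zpowers x) (Subgroup.mem_zpowers w))
    obtain ⟨k, m, hm, hkm⟩ := Nat.exists_eq_two_pow_mul_odd (orderOf_pos w).ne'
    refine ⟨w ^ (2 ^ k), m, hm, hno k, ?_, hpow _⟩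
    rw [← pow_mul, ← hkm, pow_orderOf_eq_one]

/-- The case `p = 2`. -/
theorem two_case {V : Subgroup G} [hVn : V.Normal] (h : Cam 2 V)
    (hOp : ∀ N : Subgroup G, N.Normal → IsPGroup 2 N → N ≤ V) : ¬ 2 ∣ V.index := by
  haveI : Fact (Nat.Prime 2) := ⟨Nat.prime_two⟩
  intro hdiv
  have hV2 : IsPGroup 2 V := isPGroup_of_exp h.exp
  have hsq : ∀ v ∈ V, v * v = 1 := fun v hv => by rw [← pow_two]; exact h.exp v hv
  have hVinv : ∀ v ∈ V, v⁻¹ = v := fun v hv => inv_eq_of_mul_eq_one_left (hsq v hv)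
  rw [Subgroup.index_eq_card] at hdiv
  obtain ⟨xb, hxb⟩ := exists_prime_orderOf_dvd_card' 2 hdiv
  obtain ⟨x, rfl⟩ := QuotientGroup.mk_surjective xb
  have hxx : (QuotientGroup.mk x : G ⧸ V) * QuotientGroup.mk x = 1 := by
    have := pow_orderOf_eq_one (QuotientGroup.mk x : G ⧸ V)
    rwa [hxb, pow_two] at this
  have hxV : x ∉ V := by
    intro hxV
    rw [(QuotientGroup.eq_one_iff x).2 hxV, orderOf_one] at hxb
    omega
  have hx2V : x * x ∈ V := by
    rw [← QuotientGroup.eq_one_iff, QuotientGroup.mk_mul]; exact hxx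
  obtain ⟨b, m, hm, hb1, hbm, hbinv⟩ := exists_inverted (QuotientGroup.mk x : G ⧸ V) hxx (by
    intro N hN hN2 hxN
    have h1 : IsPGroup 2 (N.comap (QuotientGroup.mk' V)) :=
      hN2.comap_of_ker_isPGroup _ (by rw [QuotientGroup.ker_mk']; exact hV2)
    exact hxV (hOp _ (hN.comap _) h1 hxN))
  obtain ⟨a, rfl⟩ := QuotientGroup.mk_surjective b
  set d := x⁻¹ * a⁻¹ * x * a with hd
  have hdmk : (QuotientGroup.mk d : G ⧸ V) = QuotientGroup.mk a * QuotientGroup.mk a := by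
    have h1 : (QuotientGroup.mk x : G ⧸ V)⁻¹ * (QuotientGroup.mk a)⁻¹ * QuotientGroup.mk x
        = QuotientGroup.mk a := by
      rw [← hbinv]; group
    rw [hd, QuotientGroup.mk_mul, QuotientGroup.mk_mul, QuotientGroup.mk_mul, QuotientGroup.mk_inv,
      QuotientGroup.mk_inv, h1]
  have hdfix : ∀ v ∈ V, d * v = v * d → v = 1 := by
    intro v hv hc
    by_contra hne
    obtain ⟨k, hk⟩ := h.fpf v hv hne d hc
    apply hb1
    have h1 : (QuotientGroup.mk a : G ⧸ V) ^ (2 ^ (k + 1)) = 1 := by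
      have h2 : (QuotientGroup.mk d : G ⧸ V) ^ (2 ^ k) = 1 := by
        rw [← QuotientGroup.mk_pow, hk]; rfl
      rw [hdmk, ← pow_two, ← pow_mul, ← pow_succ'] at h2
      exact h2
    have h3 : orderOf (QuotientGroup.mk a : G ⧸ V) ∣ 2 ^ (k + 1) := orderOf_dvd_of_pow_eq_one h1
    have h4 : orderOf (QuotientGroup.mk a : G ⧸ V) ∣ m := orderOf_dvd_of_pow_eq_one hbm
    have hcop : Nat.Coprime (2 ^ (k + 1)) m :=
      Nat.Coprime.pow_left _ (Nat.coprime_two_left.2 hm)
    exact orderOf_eq_one_iff.1 (Nat.eq_one_of_dvd_coprimes hcop h3 h4)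
  -- the homomorphism `v ↦ x v x⁻¹ v⁻¹`
  have hmem : ∀ v : V, x * (v : G) * x⁻¹ * (v : G)⁻¹ ∈ V := fun v =>
    V.mul_mem (hVn.conj_mem v v.2 x) (V.inv_mem v.2)
  let f : V →* V :=
    { toFun := fun v => ⟨x * (v : G) * x⁻¹ * (v : G)⁻¹, hmem v⟩
      map_one' := by apply Subtype.ext; simp
      map_mul' := by
        intro v w
        apply Subtype.ext
        show x * ((v : G) * w) * x⁻¹ * ((v : G) * w)⁻¹
          = (x * (v : G) * x⁻¹ * (v : G)⁻¹) * (x * (w : G) * x⁻¹ * (w : G)⁻¹)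
        have h1 : (v : G)⁻¹ * (x * (w : G) * x⁻¹) = (x * (w : G) * x⁻¹) * (v : G)⁻¹ :=
          h.comm _ (V.inv_mem v.2) _ (hVn.conj_mem w w.2 x)
        have h2 : (w : G)⁻¹ * (v : G)⁻¹ = (v : G)⁻¹ * (w : G)⁻¹ :=
          h.comm _ (V.inv_mem w.2) _ (V.inv_mem v.2)
        calc x * ((v : G) * w) * x⁻¹ * ((v : G) * w)⁻¹
            = x * (v : G) * x⁻¹ * (x * (w : G) * x⁻¹) * ((w : G)⁻¹ * (v : G)⁻¹) := by group
          _ = x * (v : G) * x⁻¹ * ((x * (w : G) * x⁻¹) * (v : G)⁻¹) * (w : G)⁻¹ := by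
              rw [h2]; group
          _ = x * (v : G) * x⁻¹ * ((v : G)⁻¹ * (x * (w : G) * x⁻¹)) * (w : G)⁻¹ := by rw [h1]
          _ = _ := by group }
  have hfker : ∀ v : V, v ∈ f.ker ↔ x * (v : G) = v * x := by
    intro v
    rw [MonoidHom.mem_ker]
    constructor
    · intro hv
      have h1 : x * (v : G) * x⁻¹ * (v : G)⁻¹ = 1 := congrArg Subtype.val hv
      calc x * (v : G) = (x * (v : G) * x⁻¹ * (v : G)⁻¹) * v * x := by group
        _ = v * x := by rw [h1, one_mul]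
    · intro hv
      apply Subtype.ext
      show x * (v : G) * x⁻¹ * (v : G)⁻¹ = 1
      rw [hv]; group
  have hrk : f.range ≤ f.ker := by
    rintro _ ⟨v, rfl⟩
    rw [hfker]
    show x * (x * (v : G) * x⁻¹ * (v : G)⁻¹) = (x * (v : G) * x⁻¹ * (v : G)⁻¹) * x
    have h1 : (x * x) * (v : G) = v * (x * x) := h.comm _ hx2V _ v.2
    have h2 : (x * (v : G) * x⁻¹) * (v : G)⁻¹ = (v : G)⁻¹ * (x * (v : G) * x⁻¹) :=
      h.comm _ (hVn.conj_mem v v.2 x) _ (V.inv_mem v.2)
    have h3 : (x * (v : G) * x⁻¹)⁻¹ = x * (v : G) * x⁻¹ := hVinv _ (hVn.conj_mem v v.2 x)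
    have h4 : (v : G)⁻¹ = v := hVinv _ v.2
    -- `x (x v x⁻¹ v⁻¹) x⁻¹ = v (x v⁻¹ x⁻¹) = x v x⁻¹ v⁻¹`
    have h5 : x * (x * (v : G) * x⁻¹ * (v : G)⁻¹) * x⁻¹ = x * (v : G) * x⁻¹ * (v : G)⁻¹ := by
      calc x * (x * (v : G) * x⁻¹ * (v : G)⁻¹) * x⁻¹
          = ((x * x) * (v : G)) * (x * x)⁻¹ * (x * (v : G) * x⁻¹)⁻¹ := by group
        _ = (v * (x * x)) * (x * x)⁻¹ * (x * (v : G) * x⁻¹)⁻¹ := by rw [h1]
        _ = v * (x * (v : G) * x⁻¹)⁻¹ := by group
        _ = (v : G)⁻¹ * (x * (v : G) * x⁻¹) := by rw [h3, h4]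
        _ = x * (v : G) * x⁻¹ * (v : G)⁻¹ := h2.symm
    calc x * (x * (v : G) * x⁻¹ * (v : G)⁻¹)
        = x * (x * (v : G) * x⁻¹ * (v : G)⁻¹) * x⁻¹ * x := by group
      _ = _ := by rw [h5]
  -- `|ker f|² ≤ |V|`
  have hcard1 : Nat.card f.ker * Nat.card f.ker ≤ Nat.card V := by
    rw [← Nat.card_prod]
    have hmem2 : ∀ c : f.ker × f.ker, ((c.1 : V) : G) * (a⁻¹ * ((c.2 : V) : G) * a) ∈ V := by
      intro c
      have := hVn.conj_mem _ (c.2 : V).2 a⁻¹
      rw [inv_inv] at this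
      exact V.mul_mem (c.1 : V).2 this
    refine Nat.card_le_card_of_injective
      (fun c : f.ker × f.ker => (⟨((c.1 : V) : G) * (a⁻¹ * ((c.2 : V) : G) * a), hmem2 c⟩ : V)) ?_
    rintro ⟨c1, c2⟩ ⟨c1', c2'⟩ hcc
    have hcc' : ((c1 : V) : G) * (a⁻¹ * ((c2 : V) : G) * a)
        = ((c1' : V) : G) * (a⁻¹ * ((c2' : V) : G) * a) := congrArg Subtype.val hcc
    set z := ((c1' : V) : G)⁻¹ * ((c1 : V) : G) with hz
    have hz2 : z = a⁻¹ * (((c2' : V) : G) * ((c2 : V) : G)⁻¹) * a := by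
      calc z = ((c1' : V) : G)⁻¹ * (((c1 : V) : G) * (a⁻¹ * ((c2 : V) : G) * a))
            * (a⁻¹ * ((c2 : V) : G)⁻¹ * a) := by rw [hz]; group
        _ = ((c1' : V) : G)⁻¹ * (((c1' : V) : G) * (a⁻¹ * ((c2' : V) : G) * a))
            * (a⁻¹ * ((c2 : V) : G)⁻¹ * a) := by rw [hcc']
        _ = _ := by group
    have hzV : z ∈ V := V.mul_mem (V.inv_mem (c1' : V).2) (c1 : V).2
    have hk1 := (hfker c1).1 c1.2
    have hk1' := (hfker c1').1 c1'.2
    have hk2 := (hfker c2).1 c2.2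
    have hk2' := (hfker c2').1 c2'.2
    have hzx : x * z = z * x := by
      have e1 : Commute x ((c1 : V) : G) := hk1
      have e2 : Commute x ((c1' : V) : G) := hk1'
      exact (e2.inv_right.mul_right e1).eq
    have hzx2 : (a⁻¹ * x * a) * z = z * (a⁻¹ * x * a) := by
      have e1 : Commute x ((c2 : V) : G) := hk2
      have e2 : Commute x ((c2' : V) : G) := hk2'
      have e3 : x * (((c2' : V) : G) * ((c2 : V) : G)⁻¹) = (((c2' : V) : G) * ((c2 : V) : G)⁻¹) * x :=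
        (e2.mul_right e1.inv_right).eq
      rw [hz2]
      calc (a⁻¹ * x * a) * (a⁻¹ * (((c2' : V) : G) * ((c2 : V) : G)⁻¹) * a)
          = a⁻¹ * (x * (((c2' : V) : G) * ((c2 : V) : G)⁻¹)) * a := by group
        _ = a⁻¹ * ((((c2' : V) : G) * ((c2 : V) : G)⁻¹) * x) * a := by rw [e3]
        _ = _ := by group
    have hz1 : z = 1 := by
      apply hdfix z hzV
      have e1 : Commute x z := hzx
      have e2 : Commute (a⁻¹ * x * a) z := hzx2
      have : d = x⁻¹ * (a⁻¹ * x * a) := by rw [hd]; group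
      rw [this]
      exact (e1.inv_left.mul_left e2).eq
    have hc1 : c1 = c1' := by
      apply Subtype.ext; apply Subtype.ext
      have : ((c1' : V) : G)⁻¹ * ((c1 : V) : G) = 1 := hz1
      exact (inv_mul_eq_one.1 this).symm
    have hc2 : c2 = c2' := by
      apply Subtype.ext; apply Subtype.ext
      have h7 : a⁻¹ * (((c2' : V) : G) * ((c2 : V) : G)⁻¹) * a = 1 := by rw [← hz2, hz1]
      have h8 : ((c2' : V) : G) * ((c2 : V) : G)⁻¹ = 1 := by
        calc ((c2' : V) : G) * ((c2 : V) : G)⁻¹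
            = a * (a⁻¹ * (((c2' : V) : G) * ((c2 : V) : G)⁻¹) * a) * a⁻¹ := by group
          _ = 1 := by rw [h7]; group
      exact (mul_inv_eq_one.1 h8).symm
    rw [hc1, hc2]
  have hcard2 : Nat.card f.ker * Nat.card f.range = Nat.card V := by
    rw [← Subgroup.index_ker]
    exact f.ker.card_mul_index
  have hkpos : 0 < Nat.card f.ker := Nat.card_pos
  have hle : Nat.card f.ker ≤ Nat.card f.range := by
    rw [← hcard2] at hcard1
    exact Nat.le_of_mul_le_mul_left hcard1 hkpos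
  have hrk' : f.range = f.ker := Subgroup.eq_of_le_of_card_ge hrk hle
  -- `x²` is in the range
  have hs : (⟨x * x, hx2V⟩ : V) ∈ f.range := by
    rw [hrk', hfker]
    show x * (x * x) = (x * x) * x
    group
  obtain ⟨u, hu⟩ := hs
  have hu' : x * (u : G) * x⁻¹ * (u : G)⁻¹ = x * x := congrArg Subtype.val hu
  set z := (u : G) * x with hz
  have hzV : z ∉ V := by
    intro hzV
    apply hxV
    have : x = (u : G)⁻¹ * z := by rw [hz]; group
    rw [this]
    exact V.mul_mem (V.inv_mem u.2) hzV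
  have hzz : z * z = 1 := by
    have h1 : x * (u : G) * x⁻¹ ∈ V := hVn.conj_mem u u.2 x
    calc z * z = (u : G) * (x * (u : G) * x⁻¹) * (x * x) := by rw [hz]; group
      _ = (u : G) * (x * (u : G) * x⁻¹) * (x * (u : G) * x⁻¹ * (u : G)⁻¹) := by rw [hu']
      _ = (u : G) * ((x * (u : G) * x⁻¹) * (x * (u : G) * x⁻¹)) * (u : G)⁻¹ := by group
      _ = 1 := by rw [hsq _ h1]; group
  apply hzV
  apply h.cent
  intro v hv
  obtain ⟨g, hg⟩ := h.cam z hzV v hv
  have h1 : (z * v) * (z * v) = 1 := by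
    rw [← hg]
    calc g * z * g⁻¹ * (g * z * g⁻¹) = g * (z * z) * g⁻¹ := by group
      _ = 1 := by rw [hzz]; group
  calc z * v = (z * v) * ((z * v) * (z * v))⁻¹ * ((z * v) * (z * v)) := by group
    _ = (z * v) * ((z * v) * (z * v))⁻¹ := by rw [h1]; group
    _ = v⁻¹ * z⁻¹ := by group
    _ = v * z := by rw [hVinv v hv, inv_eq_of_mul_eq_one_left hzz]

/-- **Key lemma.** -/
theorem key (V : Subgroup G) [hVn : V.Normal] (hV1 : V ≠ ⊥) (hel : ∀ v ∈ V, v ^ p = 1)
    (hab : ∀ a ∈ V, ∀ b ∈ V, a * b = b * a)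
    (hOp : ∀ N : Subgroup G, N.Normal → IsPGroup p N → N ≤ V)
    (hfpf : ∀ v ∈ V, v ≠ 1 → ∀ g : G, g * v = v * g → ∃ k : ℕ, g ^ (p ^ k) = 1)
    (hcam : ∀ x : G, x ∉ V → ∀ v ∈ V, ∃ g : G, g * x * g⁻¹ = x * v)
    (heven : p ≠ 2 → 2 ∣ Nat.card G) : ¬ p ∣ V.index := by
  have hcent : ∀ g : G, (∀ v ∈ V, g * v = v * g) → g ∈ V := by
    obtain ⟨v0, hv0, hv01⟩ : ∃ v0 ∈ V, v0 ≠ 1 := by
      obtain ⟨v, hv⟩ := Subgroup.ne_bot_iff_exists_ne_one.1 hV1
      exact ⟨v.1, v.2, fun h => hv (Subtype.ext h)⟩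
    have hC : IsPGroup p (Subgroup.centralizer (V : Set G)) := by
      intro g
      obtain ⟨k, hk⟩ := hfpf v0 hv0 hv01 g ((Subgroup.mem_centralizer_iff.1 g.2 v0 hv0).symm)
      exact ⟨k, Subtype.ext (by simpa using hk)⟩
    intro g hg
    apply hOp _ inferInstance hC
    rw [Subgroup.mem_centralizer_iff]
    intro v hv
    exact (hg v hv).symm
  have hcam' : Cam p V := ⟨hel, hab, hcent, hfpf, hcam⟩
  by_cases hp2 : p = 2
  · subst hp2
    exact two_case hcam' hOp
  · exact odd_case hcam' hV1 hp2 (heven hp2)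

end Cfsg.Agent.Lib.Helper65.Gagola
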