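import Mathlib
import Cfsg.Agent.Lib.Helper74.SymAlgCen

/-!
# Matrix units: `A ≃ Mat_n(C)` with `C` the centralizer of the matrix units (helper65, T1 of S4648)
-/

set_option autoImplicit false

namespace Cfsg.Agent.Lib.Helper65.SymAlgT

open Module Cfsg.Agent.Lib.Helper74.SymAlg

variable {F A : Type*} [Field F] [Ring A] [Algebra F A]

/-- The `(i,j)` coefficient of `x` with respect to the matrix units `a`. -/
def cmp {n : ℕ} (a : Fin n → Fin n → A) (x : A) (i j : Fin n) : A := ∑ k, a k i * x * a j k

section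
variable {n : ℕ} (a : Fin n → Fin n → A)
  (hmul : ∀ i j k l, a i j * a k l = if j = k then a i l else 0)

include hmul

theorem unit_mul_cmp (x : A) (i j r s : Fin n) : a r s * cmp a x i j = a r i * x * a j s := by
  unfold cmp
  rw [Finset.mul_sum]
  rw [Finset.sum_eq_single s]
  · rw [← mul_assoc, ← mul_assoc, hmul, if_pos rfl]
  · intro k _ hk
    rw [← mul_assoc, ← mul_assoc, hmul, if_neg (Ne.symm hk), zero_mul, zero_mul]
  · intro h; exact absurd (Finset.mem_univ s) h

theorem cmp_mul_unit (x : A) (i j r s : Fin n) : cmp a x i j * a r s = a r i * x * a j s := by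
  unfold cmp
  rw [Finset.sum_mul]
  rw [Finset.sum_eq_single r]
  · rw [mul_assoc, hmul, if_pos rfl]
  · intro k _ hk
    rw [mul_assoc, hmul, if_neg hk, mul_zero]
  · intro h; exact absurd (Finset.mem_univ r) h

theorem cmp_mem (x : A) (i j : Fin n) : cmp a x i j ∈ cenU F a := by
  rw [Subalgebra.mem_centralizer_iff]
  rintro _ ⟨⟨r, s⟩, rfl⟩
  show a r s * cmp a x i j = cmp a x i j * a r s
  rw [unit_mul_cmp a hmul, cmp_mul_unit a hmul]

theorem decomp (hone : ∑ i, a i i = 1) (x : A) : ∑ i, ∑ j, cmp a x i j * a i j = x := by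
  have h1 : ∀ i j, cmp a x i j * a i j = a i i * x * a j j := fun i j => cmp_mul_unit a hmul x i j i j
  simp_rw [h1]
  simp_rw [← Finset.mul_sum, hone, mul_one, ← Finset.sum_mul, hone, one_mul]

omit hmul in
theorem comm_unit (c : cenU F a) (r s : Fin n) : a r s * (c : A) = (c : A) * a r s :=
  (Subalgebra.mem_centralizer_iff F).1 c.2 (a r s) ⟨(r, s), rfl⟩

theorem cmp_sum (hone : ∑ i, a i i = 1) (m : Fin n → Fin n → cenU F a) (i j : Fin n) :
    cmp a (∑ i', ∑ j', (m i' j' : A) * a i' j') i j = m i j := by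
  unfold cmp
  have h1 : ∀ k, a k i * (∑ i', ∑ j', (m i' j' : A) * a i' j') * a j k = (m i j : A) * a k k := by
    intro k
    rw [Finset.mul_sum, Finset.sum_mul, Finset.sum_eq_single i]
    · rw [Finset.mul_sum, Finset.sum_mul, Finset.sum_eq_single j]
      · rw [← mul_assoc, comm_unit a (m i j) k i, mul_assoc, mul_assoc, hmul i j j k, if_pos rfl,
          hmul, if_pos rfl]
      · intro j' _ hj'
        rw [mul_assoc, mul_assoc, hmul i j' j k, if_neg hj', mul_zero, mul_zero]
      · intro h; exact absurd (Finset.mem_univ j) h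
    · intro i' _ hi'
      rw [Finset.mul_sum, Finset.sum_mul]
      apply Finset.sum_eq_zero
      intro j' _
      rw [← mul_assoc, comm_unit a (m i' j') k i, mul_assoc (m i' j' : A), hmul k i i' j',
        if_neg (Ne.symm hi'), mul_zero, zero_mul]
    · intro h; exact absurd (Finset.mem_univ i) h
  simp_rw [h1]
  rw [← Finset.mul_sum, hone, mul_one]

/-- **T1.** -/
theorem T1 (hone : ∑ i, a i i = 1) :
    ∃ e : (Fin n → Fin n → cenU F a) ≃ₗ[F] A, ∀ m, e m = ∑ i, ∑ j, (m i j : A) * a i j := by
  refine ⟨{ toFun := fun m => ∑ i, ∑ j, (m i j : A) * a i j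
            map_add' := ?_
            map_smul' := ?_
            invFun := fun x i j => ⟨cmp a x i j, cmp_mem a hmul x i j⟩
            left_inv := ?_
            right_inv := ?_ }, fun m => rfl⟩
  · intro m m'
    simp only [Pi.add_apply, Subalgebra.coe_add, add_mul, Finset.sum_add_distrib]
  · intro c m
    simp only [Pi.smul_apply, Subalgebra.coe_smul, smul_mul_assoc, Finset.smul_sum,
      RingHom.id_apply]
  · intro m
    funext i j
    apply Subtype.ext
    exact cmp_sum a hmul hone m i j
  · intro x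
    exact decomp a hmul hone x

end

end Cfsg.Agent.Lib.Helper65.SymAlgT
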