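import Mathlib
import Cfsg.Agent.Lib.Helper65.SymAlgT1

/-!
# Matrix units: the dimension of `A e` (helper65, T2 of S4648)
-/

set_option autoImplicit false

namespace Cfsg.Agent.Lib.Helper65.SymAlgT

open Module Cfsg.Agent.Lib.Helper74.SymAlg

variable {F A : Type*} [Field F] [Ring A] [Algebra F A] [FiniteDimensional F A]

/-- **T2.** -/
theorem T2 {n : ℕ} (a : Fin n → Fin n → A)
    (hmul : ∀ i j k l, a i j * a k l = if j = k then a i l else 0) (hone : ∑ i, a i i = 1)
    (i₀ : Fin n) :
    finrank F (LinearMap.range (LinearMap.mulRight F (a i₀ i₀))) = n * finrank F (cenU F a) := by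
  have hmem : ∀ c : Fin n → cenU F a,
      (∑ i, (c i : A) * a i i₀) ∈ LinearMap.range (LinearMap.mulRight F (a i₀ i₀)) := by
    intro c
    refine ⟨∑ i, (c i : A) * a i i₀, ?_⟩
    rw [LinearMap.mulRight_apply, Finset.sum_mul]
    apply Finset.sum_congr rfl
    intro i _
    rw [mul_assoc, hmul, if_pos rfl]
  let e : (Fin n → cenU F a) ≃ₗ[F] LinearMap.range (LinearMap.mulRight F (a i₀ i₀)) :=
    { toFun := fun c => ⟨∑ i, (c i : A) * a i i₀, hmem c⟩
      map_add' := by
        intro c c'
        apply Subtype.ext
        simp only [Pi.add_apply, Subalgebra.coe_add, add_mul, Finset.sum_add_distrib,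
          Submodule.coe_add]
      map_smul' := by
        intro r c
        apply Subtype.ext
        simp only [Pi.smul_apply, Subalgebra.coe_smul, smul_mul_assoc, Finset.smul_sum,
          RingHom.id_apply, Submodule.coe_smul]
      invFun := fun y i => ⟨cmp a (y : A) i i₀, cmp_mem a hmul _ i i₀⟩
      left_inv := by
        intro c
        funext i
        apply Subtype.ext
        show cmp a (∑ i', (c i' : A) * a i' i₀) i i₀ = c i
        have h1 := cmp_sum a hmul hone (fun i' j' => if j' = i₀ then c i' else 0) i i₀
        rw [if_pos rfl] at h1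
        rw [← h1]
        congr 1
        apply Finset.sum_congr rfl
        intro i' _
        rw [Finset.sum_eq_single i₀]
        · rw [if_pos rfl]
        · intro j' _ hj'
          rw [if_neg hj']; simp
        · intro h; exact absurd (Finset.mem_univ i₀) h
      right_inv := by
        rintro ⟨y, x, rfl⟩
        apply Subtype.ext
        show ∑ i, cmp a (LinearMap.mulRight F (a i₀ i₀) x) i i₀ * a i i₀
          = LinearMap.mulRight F (a i₀ i₀) x
        rw [LinearMap.mulRight_apply]
        have h1 : ∀ i, cmp a (x * a i₀ i₀) i i₀ * a i i₀ = a i i * (x * a i₀ i₀) := by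
          intro i
          rw [cmp_mul_unit a hmul, mul_assoc, mul_assoc x, hmul, if_pos rfl]
        simp_rw [h1]
        rw [← Finset.sum_mul, hone, one_mul] }
  rw [← e.finrank_eq, Module.finrank_pi_fintype]
  simp

end Cfsg.Agent.Lib.Helper65.SymAlgT
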