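import Mathlib
import Cfsg.Agent.Lib.Helper65.SymAlgT1

/-!
# Matrix units: the centre of the centralizer (helper65, T3 of S4648)
-/

set_option autoImplicit false

namespace Cfsg.Agent.Lib.Helper65.SymAlgT

open Module Cfsg.Agent.Lib.Helper74.SymAlg

variable {F A : Type*} [Field F] [Ring A] [Algebra F A]

/-- **T3.** -/
theorem T3 {n : ℕ} (a : Fin n → Fin n → A)
    (hmul : ∀ i j k l, a i j * a k l = if j = k then a i l else 0) (hone : ∑ i, a i i = 1) :
    finrank F (Subalgebra.center F (cenU F a)) = finrank F (Subalgebra.center F A) := by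
  have hcen : ∀ z : A, z ∈ Subalgebra.center F A → z ∈ cenU F a := by
    intro z hz
    rw [Subalgebra.mem_centralizer_iff]
    intro g _
    exact ((Subalgebra.mem_center_iff.1 hz) g)
  have hback : ∀ z : cenU F a, z ∈ Subalgebra.center F (cenU F a) →
      (z : A) ∈ Subalgebra.center F A := by
    intro z hz
    rw [Subalgebra.mem_center_iff]
    intro x
    rw [← decomp a hmul hone x, Finset.sum_mul, Finset.mul_sum]
    apply Finset.sum_congr rfl
    intro i _
    rw [Finset.sum_mul, Finset.mul_sum]
    apply Finset.sum_congr rfl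
    intro j _
    have h1 : (⟨cmp a x i j, cmp_mem a hmul x i j⟩ : cenU F a) * z
        = z * ⟨cmp a x i j, cmp_mem a hmul x i j⟩ := (Subalgebra.mem_center_iff.1 hz) _
    have h2 : cmp a x i j * (z : A) = (z : A) * cmp a x i j := congrArg Subtype.val h1
    rw [mul_assoc, comm_unit a z i j, ← mul_assoc, h2, mul_assoc]
  let e : Subalgebra.center F (cenU F a) ≃ₗ[F] Subalgebra.center F A :=
    { toFun := fun z => ⟨((z : cenU F a) : A), hback z z.2⟩
      map_add' := fun _ _ => rfl
      map_smul' := fun _ _ => rfl
      invFun := fun z => ⟨⟨(z : A), hcen z z.2⟩, by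
        rw [Subalgebra.mem_center_iff]
        intro c
        apply Subtype.ext
        exact (Subalgebra.mem_center_iff.1 z.2) (c : A)⟩
      left_inv := fun _ => rfl
      right_inv := fun _ => rfl }
  exact e.finrank_eq

end Cfsg.Agent.Lib.Helper65.SymAlgT
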